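import Cfsg.Agent.Lib.RootSub.QuadPair4

/-! Root subgroups `{1 + c a}` attached to square-zero elements `a` of an algebra. -/

set_option autoImplicit false

namespace CfsgLib.RootSub

open Cfsg CfsgLib.SL2
open scoped commutatorElement MatrixGroups

variable {k R G : Type*} [Field k] [Ring R] [Algebra k R] [Group G]

/-- The homomorphism from `SL₂(k)` attached to a pair with `a b a = a`, `b a b = b`. -/
def slHomA (k : Type*) [Field k] [Algebra k R] {a b : R} (ha : a * a = 0) (hb : b * b = 0) (e1 : a * b * a = a)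
    (e2 : b * a * b = b) : SL(2, k) →* R where
  toFun g := 1 - (a * b + b * a) + g 0 0 • (a * b) + g 0 1 • a + g 1 0 • b + g 1 1 • (b * a)
  map_one' := by simp [one_00, one_01, one_10, one_11]; abel
  map_mul' g g' := by
    have h1 : ∀ z : R, z * a * a = 0 := fun z => by rw [mul_assoc, ha, mul_zero]
    have h2 : ∀ z : R, z * b * b = 0 := fun z => by rw [mul_assoc, hb, mul_zero]
    simp only [mul_ap, mul_add, add_mul, mul_sub, sub_mul, smul_mul_assoc, mul_smul_comm, ← mul_assoc, ha,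
      hb, e1, e2, h1, h2, one_mul, mul_one, zero_mul, smul_zero]
    module

/-- The subgroup attached to `a`. -/
def UU (k : Type*) [Field k] [Algebra k R] (ι : G →* R) (a : R) : Subgroup G :=
  Subgroup.closure {g | ∃ c : k, ι g = 1 + c • a}

/-- The family of these subgroups. -/
def Fam (k : Type*) [Field k] [Algebra k R] (ι : G →* R) (N : Set R) : Set (Subgroup G) := {A | ∃ a ∈ N, A = UU k ι a}

/-- Opposite elements. -/
def Op (k : Type*) [Field k] [Algebra k R] (a b : R) : Prop := ∃ l : k, l ≠ 0 ∧ a * b * a = l • a ∧ b * a * b = l • b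

/-- A conjugation invariant set of square-zero elements with the three kinds of pairs. -/
structure Lin (k : Type*) [Field k] [Algebra k R] (ι : G →* R) (N : Set R) : Prop where
  inj : Function.Injective ι
  sq : ∀ a ∈ N, a * a = 0
  ne : ∀ a ∈ N, a ≠ 0
  lift : ∀ a ∈ N, ∀ c : k, ∃ g, ι g = 1 + c • a
  conj : ∀ a ∈ N, ∀ g, ι g * a * ι g⁻¹ ∈ N
  pair : ∀ a ∈ N, ∀ b ∈ N, a * b = b * a ∨ Op k a b ∨ (a * b * a = 0 ∧ b * a * b = 0 ∧ a * b - b * a ∈ N)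

variable {ι : G →* R} {N : Set R} {a b : R} {g x : G}

theorem one_add_mul (ha : a * a = 0) (c d : k) : (1 + c • a) * (1 + d • a) = 1 + (c + d) • a := by
  simp only [mul_add, add_mul, smul_mul_assoc, mul_smul_comm, ha, one_mul, mul_one, smul_zero]
  module

theorem map_inv_eq {u : R} (h : ι g * u = 1) : ι g⁻¹ = u := by
  rw [← mul_one (ι g⁻¹), ← h, ← mul_assoc, ← map_mul, inv_mul_cancel, map_one, one_mul]

theorem map_inv_UU (ha : a * a = 0) {c : k} (h : ι g = 1 + c • a) : ι g⁻¹ = 1 + (-c) • a :=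
  map_inv_eq (by rw [h, one_add_mul ha, add_neg_cancel, zero_smul, add_zero])

theorem mem_UU (ha : a * a = 0) : g ∈ UU k ι a ↔ ∃ c : k, ι g = 1 + c • a := by
  refine ⟨fun h => ?_, fun h => Subgroup.subset_closure h⟩
  induction h using Subgroup.closure_induction with
  | mem x hx => exact hx
  | one => exact ⟨0, by simp⟩
  | mul x y _ _ hx hy =>
    obtain ⟨c, hc⟩ := hx
    obtain ⟨d, hd⟩ := hy
    exact ⟨c + d, by rw [map_mul, hc, hd, one_add_mul ha]⟩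
  | inv x _ hx =>
    obtain ⟨c, hc⟩ := hx
    exact ⟨-c, map_inv_UU ha hc⟩

theorem UU_smul {l : k} (hl : l ≠ 0) : UU k ι (l • a) = UU k ι a :=
  congrArg Subgroup.closure (Set.ext fun _ => ⟨fun ⟨c, h⟩ => ⟨c * l, by rw [h, mul_smul]⟩,
    fun ⟨c, h⟩ => ⟨c * l⁻¹, by rw [h, smul_smul, inv_mul_cancel_right₀ hl]⟩⟩)

theorem conj_sq (ha : a * a = 0) (g : G) : ι g * a * ι g⁻¹ * (ι g * a * ι g⁻¹) = 0 := by
  rw [mul_assoc, ← mul_assoc (ι g⁻¹), ← mul_assoc (ι g⁻¹), ← map_mul, inv_mul_cancel, map_one, one_mul,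
    ← mul_assoc, mul_assoc _ a a, ha, mul_zero, zero_mul]

theorem map_conj {c : k} (h : ι x = 1 + c • a) (g : G) : ι (g * x * g⁻¹) = 1 + c • (ι g * a * ι g⁻¹) := by
  rw [map_mul, map_mul, h, mul_add, add_mul, mul_one, ← map_mul, mul_inv_cancel, map_one, mul_smul_comm,
    smul_mul_assoc]

theorem conjBy_UU (ha : a * a = 0) (g : G) : conjBy (UU k ι a) g = UU k ι (ι g * a * ι g⁻¹) := by
  ext x
  rw [mem_conjBy, mem_UU ha, mem_UU (conj_sq ha g)]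
  refine exists_congr fun c => ⟨fun h => ?_, fun h => ?_⟩
  · rw [← map_conj h g]
    congr 1
    group
  · have := map_conj h g⁻¹
    rw [inv_inv] at this
    rw [this, mul_assoc, mul_assoc, ← map_mul, inv_mul_cancel, map_one, mul_one, ← mul_assoc, ← map_mul,
      inv_mul_cancel, map_one, one_mul]

theorem UU_subgroupOf (ha : a * a = 0) (X : Subgroup G) :
    (UU k ι a).subgroupOf X = UU k (ι.comp X.subtype) a := by
  ext x
  rw [Subgroup.mem_subgroupOf, mem_UU ha, mem_UU ha]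
  rfl

theorem map_comm_eq (ha : a * a = 0) (hb : b * b = 0) (e1 : a * b * a = 0) (e2 : b * a * b = 0) {y : G} {c d : k}
    (hx : ι x = 1 + c • a) (hy : ι y = 1 + d • b) : ι ⁅x, y⁆ = 1 + (c * d) • (a * b - b * a) := by
  have h1 : ∀ z : R, z * b * b = 0 := fun z => by rw [mul_assoc, hb, mul_zero]
  rw [commutatorElement_def, map_mul, map_mul, map_mul, map_inv_UU ha hx, map_inv_UU hb hy, hx, hy]
  simp only [mul_add, add_mul, smul_mul_assoc, mul_smul_comm, ha, hb, e1, e2, h1, one_mul, mul_one, smul_zero,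
    zero_mul]
  module

namespace Lin

variable (h : Lin k ι N)
include h

theorem comm_iff (ha : a ∈ N) (hb : b ∈ N) : Comm (UU k ι a) (UU k ι b) ↔ a * b = b * a := by
  refine ⟨fun e => ?_, fun e x hx y hy => h.inj ?_⟩
  · obtain ⟨x, hx⟩ := h.lift a ha 1
    obtain ⟨y, hy⟩ := h.lift b hb 1
    have := congrArg ι (e x (Subgroup.subset_closure ⟨1, hx⟩) y (Subgroup.subset_closure ⟨1, hy⟩))
    rw [map_mul, map_mul, hx, hy, one_smul, one_smul] at this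
    linear_combination (norm := noncomm_ring) this
  · obtain ⟨c, hc⟩ := (mem_UU (h.sq a ha)).1 hx
    obtain ⟨d, hd⟩ := (mem_UU (h.sq b hb)).1 hy
    simp only [map_mul, hc, hd, mul_add, add_mul, smul_mul_assoc, mul_smul_comm, e, one_mul, mul_one]
    module

theorem eq_one_iff (ha : a ∈ N) {c : k} (hx : ι x = 1 + c • a) : x = 1 ↔ c = 0 := by
  rw [← h.inj.eq_iff, map_one, hx, add_eq_left, smul_eq_zero, or_iff_left (h.ne a ha)]

theorem ne_bot (ha : a ∈ N) : UU k ι a ≠ ⊥ := fun e => by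
  obtain ⟨x, hx⟩ := h.lift a ha 1
  exact one_ne_zero ((h.eq_one_iff ha hx).1 (Subgroup.mem_bot.1 (e ▸ Subgroup.subset_closure ⟨1, hx⟩)))

theorem exists_hom (ha : a ∈ N) (hb : b ∈ N) {l : k} (hl : l ≠ 0) (e1 : a * b * a = l • a) (e2 : b * a * b = l • b) :
    ∃ φ : SL(2, k) →* G, (∀ t, ι (φ (uu t)) = 1 + t • a) ∧ ∀ t, ι (φ (ll t)) = 1 + (t * l⁻¹) • b := by
  let ψ := slHomA k (b := l⁻¹ • b) (h.sq a ha) (by simp [h.sq b hb])
    (by simp [e1, smul_smul, hl]) (by simp [e2, smul_smul, hl])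
  have hu : ∀ t, ψ (uu t) = 1 + t • a := fun t => by simp [ψ, slHomA]; abel
  have hv : ∀ t, ψ (ll t) = 1 + (t * l⁻¹) • b := fun t => by simp [ψ, slHomA, mul_smul]; abel
  let H : Subgroup SL(2, k) :=
    { carrier := {g | ∃ x, ι x = ψ g}
      one_mem' := ⟨1, by simp⟩
      mul_mem' := fun ⟨x, hx⟩ ⟨y, hy⟩ => ⟨x * y, by simp [hx, hy]⟩
      inv_mem' := fun ⟨x, hx⟩ => ⟨x⁻¹, map_inv_eq (by rw [hx, ← map_mul, mul_inv_cancel, map_one])⟩ }
  have hH : H = ⊤ := sl2_eq_top_of_uu_ll H (fun t => by rw [show uu t ∈ H ↔ ∃ x, ι x = ψ (uu t) from Iff.rfl, hu]; exact h.lift a ha t)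
    fun t => by rw [show ll t ∈ H ↔ ∃ x, ι x = ψ (ll t) from Iff.rfl, hv]; exact h.lift b hb _
  choose f hf using fun g => (show ∃ x, ι x = ψ g from hH.ge (Subgroup.mem_top g))
  exact ⟨MonoidHom.mk' f fun g g' => h.inj (by rw [map_mul, hf, hf, hf, map_mul]),
    fun t => (hf _).trans (hu t), fun t => (hf _).trans (hv t)⟩

theorem op_not_comm (ha : a ∈ N) (ho : Op k a b) : a * b ≠ b * a := fun e => by
  obtain ⟨l, hl, e1, -⟩ := ho
  rw [e, mul_assoc, h.sq a ha, mul_zero, eq_comm, smul_eq_zero] at e1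
  exact e1.elim hl (h.ne a ha)

theorem psl2 (ha : a ∈ N) (hb : b ∈ N) (ho : Op k a b) : IsPSL2PairOver k (UU k ι a) (UU k ι b) := by
  have hn := h.op_not_comm ha ho
  obtain ⟨l, hl, e1, e2⟩ := ho
  obtain ⟨φ, hu, hv⟩ := h.exists_hom ha hb hl e1 e2
  have h1 : (upperUnipotentSL2 k).map φ = UU k ι a := by
    ext x
    simp only [mem_UU (h.sq a ha), Subgroup.mem_map, mem_upper_iff, ← hu, h.inj.eq_iff]
    exact ⟨fun ⟨_, ⟨t, rfl⟩, e⟩ => ⟨t, e.symm⟩, fun ⟨t, e⟩ => ⟨_, ⟨t, rfl⟩, e.symm⟩⟩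
  have h2 : (lowerUnipotentSL2 k).map φ = UU k ι b := by
    ext x
    simp only [mem_UU (h.sq b hb), Subgroup.mem_map, mem_lower_iff]
    refine ⟨fun ⟨_, ⟨t, rfl⟩, e⟩ => ⟨_, e ▸ hv t⟩, fun ⟨t, e⟩ => ⟨_, ⟨t * l, rfl⟩, h.inj ?_⟩⟩
    rw [hv, e, mul_inv_cancel_right₀ hl]
  have := psl2_of_hom φ (by
    rw [h1, h2]
    exact fun e => hn ((h.comm_iff ha hb).1 (e ▸ (h.comm_iff ha ha).2 rfl)))
  rwa [h1, h2] at this

theorem cc (ha : a ∈ N) (hb : b ∈ N) (e1 : a * b * a = 0) (e2 : b * a * b = 0) (hc : a * b - b * a ∈ N) :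
    Cc (UU k ι a) (UU k ι b) (UU k ι (a * b - b * a)) := by
  have ha2 := h.sq a ha
  have hb2 := h.sq b hb
  have key := fun {x y c d} => map_comm_eq (k := k) (ι := ι) (x := x) (y := y) (c := c) (d := d) ha2 hb2 e1 e2
  have sB : ∀ x ∈ UU k ι a, x ≠ 1 → ∀ z ∈ UU k ι (a * b - b * a), ∃ y ∈ UU k ι b, z = ⁅x, y⁆ := by
    intro x hx hx1 z hz
    obtain ⟨c, hc'⟩ := (mem_UU ha2).1 hx
    obtain ⟨d, hd⟩ := (mem_UU (h.sq _ hc)).1 hz
    obtain ⟨y, hy⟩ := h.lift b hb (c⁻¹ * d)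
    exact ⟨y, Subgroup.subset_closure ⟨_, hy⟩, h.inj (by
      rw [key hc' hy, hd, mul_inv_cancel_left₀ fun e => hx1 ((h.eq_one_iff ha hc').2 e)])⟩
  refine ⟨le_antisymm (Subgroup.commutator_le.2 fun x hx y hy => ?_) fun z hz => ?_, h.ne_bot hc,
    (h.comm_iff hc ha).2 ?_, (h.comm_iff hc hb).2 ?_, sB, fun y hy hy1 z hz => ?_⟩
  · obtain ⟨c, hc'⟩ := (mem_UU ha2).1 hx
    obtain ⟨d, hd⟩ := (mem_UU hb2).1 hy
    exact Subgroup.subset_closure ⟨_, key hc' hd⟩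
  · obtain ⟨x, hx, hx1⟩ := exists_ne_one_of_ne_bot (h.ne_bot ha)
    obtain ⟨y, hy, rfl⟩ := sB x hx hx1 z hz
    exact Subgroup.commutator_mem_commutator hx hy
  · rw [sub_mul, mul_sub, e1, mul_assoc b, ha2, ← mul_assoc, ← mul_assoc, ha2, e1]
    simp
  · rw [sub_mul, mul_sub, e2, mul_assoc a, hb2, ← mul_assoc, ← mul_assoc, hb2, e2]
    simp
  · obtain ⟨c, hc'⟩ := (mem_UU hb2).1 hy
    obtain ⟨d, hd⟩ := (mem_UU (h.sq _ hc)).1 hz
    obtain ⟨x, hx⟩ := h.lift a ha (d * c⁻¹)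
    exact ⟨x, Subgroup.subset_closure ⟨_, hx⟩, h.inj (by
      rw [key hx hc', hd, inv_mul_cancel_right₀ fun e => hy1 ((h.eq_one_iff hb hc').2 e)])⟩

theorem fam_conj {A : Subgroup G} (hA : A ∈ Fam k ι N) (g : G) : conjBy A g ∈ Fam k ι N := by
  obtain ⟨a, ha, rfl⟩ := hA
  exact ⟨_, h.conj a ha g, conjBy_UU (h.sq a ha) g⟩

theorem rs : RS (Fam k ι N) := by
  refine ⟨?_, ?_, fun A hA _ _ b _ => h.fam_conj hA b, ?_⟩
  · rintro _ ⟨a, ha, rfl⟩
    exact (h.comm_iff ha ha).2 rfl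
  · rintro _ ⟨a, ha, rfl⟩
    exact h.ne_bot ha
  · rintro _ ⟨a, ha, rfl⟩ _ ⟨b, hb, rfl⟩
    rcases h.pair a ha b hb with e | e | ⟨e1, e2, e3⟩
    · exact Or.inl ((h.comm_iff ha hb).2 e)
    · exact Or.inr (Or.inl (psl2_r1 (h.psl2 ha hb e)))
    · exact Or.inr (Or.inr ⟨_, ⟨_, e3, rfl⟩, h.cc ha hb e1 e2 e3⟩)

theorem kroot (hS : IsRootSubgroupSet (Fam k ι N)) : IsKRootSubgroupSet k (Fam k ι N) := by
  refine ⟨hS, ?_⟩
  rintro _ ⟨a, ha, rfl⟩ _ ⟨b, hb, rfl⟩ hr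
  rcases h.pair a ha b hb with e | e | ⟨e1, e2, e3⟩
  · exact absurd ((h.comm_iff ha hb).2 e) (r1_not_comm hr)
  · exact h.psl2 ha hb e
  · exact absurd hr ((h.cc ha hb e1 e2 e3).not_r1 ((h.comm_iff hb hb).2 rfl))

theorem degenerate (hd : ∀ a ∈ N, ∀ b ∈ N, a * b = b * a ∨ Op k a b) : IsDegenerateRootSet (Fam k ι N) := by
  rintro _ ⟨a, ha, rfl⟩ _ ⟨b, hb, rfl⟩ hr
  have h1 := cc_of_rootCommutatorCase hr (h.rs.ne_bot _ hr.1)
  rcases hd a ha b hb with e | e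
  · exact h1.not_comm ((h.comm_iff ha hb).2 e)
  · exact h1.not_r1 ((h.comm_iff hb hb).2 rfl) (psl2_r1 (h.psl2 ha hb e))

theorem conn (hn : ∀ a ∈ N, ∃ b ∈ N, Op k a b)
    (hc : ∀ a ∈ N, ∀ b ∈ N, Relation.ReflTransGen (fun a b => b ∈ N ∧ a * b ≠ b * a) a b) :
    IsConnectedFamily (FAdj (Fam k ι N)) (Fam k ι N) := by
  have hn' : ∀ A ∈ Fam k ι N, NI (Fam k ι N) A := by
    rintro _ ⟨a, ha, rfl⟩
    obtain ⟨b, hb, ho⟩ := hn a ha
    exact ⟨_, ⟨b, hb, rfl⟩, psl2_r1 (h.psl2 ha hb ho)⟩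
  rintro _ ⟨a, ha, rfl⟩ _ ⟨b, hb, rfl⟩
  have : ∀ b, Relation.ReflTransGen (fun a b => b ∈ N ∧ a * b ≠ b * a) a b →
      b ∈ N ∧ UU k ι b ∈ cmp (Fam k ι N) (UU k ι a) := fun b hp => by
    induction hp with
    | refl => exact ⟨ha, mem_cmp_self ⟨a, ha, rfl⟩⟩
    | tail _ h2 ih => exact ⟨h2.1, by_contra fun e =>
        h2.2 ((h.comm_iff ih.1 h2.1).1 (h.rs.comm_of_not_mem hn' ih.2 ⟨_, h2.1, rfl⟩ e))⟩
  exact (this b (hc a ha b hb)).2.2

omit h in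
theorem conjClass {S : Set (Subgroup G)} (hne : S.Nonempty) (hc : IsConnectedFamily (FAdj S) S) :
    IsConjClassOfSubgroups S := ⟨hne, fun A hA B hB =>
  (cmp_exists_conj hA ⟨hB, hc A hA B hB⟩).imp fun _ e => e.2⟩

theorem sub : Lin k (ι.comp (⨆ B ∈ Fam k ι N, B : Subgroup G).subtype) N :=
  ⟨h.inj.comp Subtype.val_injective, h.sq, h.ne, fun a ha c => by
    obtain ⟨g, hg⟩ := h.lift a ha c
    exact ⟨⟨g, le_gen (S := Fam k ι N) ⟨a, ha, rfl⟩ (Subgroup.subset_closure ⟨c, hg⟩)⟩, hg⟩,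
    fun a ha g => h.conj a ha g, h.pair⟩

theorem image_eq (X : Subgroup G) :
    (fun A : Subgroup G => A.subgroupOf X) '' Fam k ι N = Fam k (ι.comp X.subtype) N := by
  ext A
  constructor
  · rintro ⟨_, ⟨a, ha, rfl⟩, rfl⟩
    exact ⟨a, ha, UU_subgroupOf (h.sq a ha) X⟩
  · rintro ⟨a, ha, rfl⟩
    exact ⟨_, ⟨a, ha, rfl⟩, UU_subgroupOf (h.sq a ha) X⟩

theorem sub_rs : IsRootSubgroupSet (Fam k (ι.comp (⨆ B ∈ Fam k ι N, B : Subgroup G).subtype) N) :=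
  h.image_eq _ ▸ h.rs.subgroupOf

end Lin

end CfsgLib.RootSub
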