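import Cfsg.Agent.Lib.RootSub.Lin
import Cfsg.Agent.Lib.Classical.SLBasic
import Cfsg.Agent.Lib.Symp.Basic

/-! Transvection subgroups of linear and symplectic groups as abstract root subgroups. -/

set_option autoImplicit false

namespace CfsgLib.RootSub

open Cfsg Matrix
open scoped MatrixGroups

section Rk

variable {F V : Type*} [Field F] [AddCommGroup V] [Module F V] {φ ψ : V →ₗ[F] F} {p v : V}

/-- The map `x ↦ φ(x) p`. -/
abbrev ro (φ : V →ₗ[F] F) (p : V) : Module.End F V := φ.smulRight p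

theorem ro_mul (φ ψ : V →ₗ[F] F) (p v : V) : ro φ p * ro ψ v = φ v • ro ψ p := by
  ext x
  simp [smul_smul, mul_comm]

theorem ro_mul_mul (φ ψ : V →ₗ[F] F) (p v : V) : ro φ p * ro ψ v * ro φ p = (φ v * ψ p) • ro φ p := by
  rw [ro_mul, smul_mul_assoc, ro_mul, smul_smul]

theorem ro_ne (hφ : φ ≠ 0) (hp : p ≠ 0) : ro φ p ≠ 0 := fun e => hφ <| by
  ext x
  simpa [hp] using LinearMap.congr_fun e x

theorem ro_conj (g g' : Module.End F V) : g * ro φ p * g' = ro (φ ∘ₗ g') (g p) := by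
  ext x
  simp

theorem exists_ne_two (hφ : φ ≠ 0) (hψ : ψ ≠ 0) : ∃ v, φ v ≠ 0 ∧ ψ v ≠ 0 := by
  obtain ⟨x, hx⟩ := DFunLike.ne_iff.1 hφ
  obtain ⟨y, hy⟩ := DFunLike.ne_iff.1 hψ
  by_cases h1 : ψ x = 0
  · by_cases h2 : φ y = 0
    · exact ⟨x + y, by simpa [h2] using hx, by simpa [h1] using hy⟩
    · exact ⟨y, h2, hy⟩
  · exact ⟨x, hx, h1⟩

theorem ro_not_comm (h0 : φ p = 0) (hp : p ≠ 0) (hψ : ψ ≠ 0) (h : φ v ≠ 0) : ro φ p * ro ψ v ≠ ro ψ v * ro φ p := by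
  intro e
  have h1 : ψ p = 0 := by
    have := congrArg (fun t => φ (t v)) e
    simpa [h0, h] using this.symm
  rw [ro_mul, ro_mul, h1, zero_smul, smul_eq_zero] at e
  exact e.elim h (ro_ne hψ hp)

theorem ro_op (h1 : φ v ≠ 0) (h2 : ψ p ≠ 0) : Op F (ro φ p) (ro ψ v) :=
  ⟨φ v * ψ p, mul_ne_zero h1 h2, ro_mul_mul .., by rw [ro_mul_mul, mul_comm]⟩

theorem ro_neg : ro φ (-p) = -ro φ p := by
  ext x
  simp

/-- The square-zero maps of rank one. -/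
def NSL (F V : Type*) [Field F] [AddCommGroup V] [Module F V] : Set (Module.End F V) :=
  {a | ∃ φ p, φ ≠ 0 ∧ p ≠ 0 ∧ φ p = 0 ∧ a = ro φ p}

theorem nsl_pair : ∀ a ∈ NSL F V, ∀ b ∈ NSL F V,
    a * b = b * a ∨ Op F a b ∨ (a * b * a = 0 ∧ b * a * b = 0 ∧ a * b - b * a ∈ NSL F V) := by
  rintro _ ⟨φ, p, h1, h2, h3, rfl⟩ _ ⟨ψ, v, h4, h5, h6, rfl⟩
  by_cases e1 : φ v = 0 <;> by_cases e2 : ψ p = 0
  · exact Or.inl (by rw [ro_mul, ro_mul, e1, e2, zero_smul, zero_smul])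
  · refine Or.inr (Or.inr ⟨by simp [ro_mul_mul, e1], by simp [ro_mul_mul, e1],
      φ, -ψ p • v, h1, by simp [e2, h5], by simp [e1], ?_⟩)
    ext x
    simp [e1, smul_smul, mul_comm]
  · refine Or.inr (Or.inr ⟨by simp [ro_mul_mul, e2], by simp [ro_mul_mul, e2],
      ψ, φ v • p, h4, by simp [e1, h2], by simp [e2], ?_⟩)
    ext x
    simp [e2, smul_smul, mul_comm]
  · exact Or.inr (Or.inl (ro_op e1 e2))

theorem nsl_op (a : Module.End F V) (ha : a ∈ NSL F V) : ∃ (φ : V →ₗ[F] F) (p : V) (ψ : V →ₗ[F] F) (v : V), φ ≠ 0 ∧ p ≠ 0 ∧ φ p = 0 ∧ a = ro φ p ∧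
    ψ v = 0 ∧ φ v = 1 ∧ ψ p = 1 := by
  obtain ⟨φ, p, h1, h2, h3, rfl⟩ := ha
  obtain ⟨v, hv⟩ := LinearMap.surjective_of_ne_zero h1 1
  obtain ⟨ψ, hψ⟩ := Module.Projective.exists_dual_eq_one F h2
  exact ⟨φ, p, ψ - ψ v • φ, v, h1, h2, h3, rfl, by simp [hv], hv, by simp [hψ, h3]⟩

theorem nsl_ni : ∀ a ∈ NSL F V, ∃ b ∈ NSL F V, Op F a b := fun a ha => by
  obtain ⟨φ, p, ψ, v, -, -, -, rfl, h4, h5, h6⟩ := nsl_op a ha
  exact ⟨_, ⟨ψ, v, by rintro rfl; simp at h6, by rintro rfl; simp at h5, h4, rfl⟩, ro_op (by simp [h5]) (by simp [h6])⟩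

theorem nsl_conn : ∀ a ∈ NSL F V, ∀ b ∈ NSL F V,
    Relation.ReflTransGen (fun a b => b ∈ NSL F V ∧ a * b ≠ b * a) a b := by
  rintro _ ⟨φ, p, h1, h2, h3, rfl⟩ _ ⟨φ', p', h4, h5, h6, rfl⟩
  obtain ⟨v, e1, e2⟩ := exists_ne_two h1 h4
  obtain ⟨ψ, hψ⟩ := Module.Projective.exists_dual_eq_one F h2
  have h7 : φ v • ψ - ψ v • φ ≠ 0 := fun e => by simpa [hψ, h3, e1] using LinearMap.congr_fun e p
  exact (Relation.ReflTransGen.single ⟨⟨_, v, h7, by rintro rfl; simp at e1, by simp [mul_comm], rfl⟩,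
    ro_not_comm h3 h2 h7 e1⟩).tail ⟨⟨φ', p', h4, h5, h6, rfl⟩, (ro_not_comm h6 h5 h7 e2).symm⟩

end Rk

section Mat

variable {F n G : Type*} [Field F] [Fintype n] [DecidableEq n] [Group G]

/-- The action on column vectors. -/
def matι (f : G →* Matrix n n F) : G →* Module.End F (n → F) :=
  (Matrix.toLinAlgEquiv' : Matrix n n F ≃ₐ[F] _).toMonoidHom.comp f

theorem matι_apply (f : G →* Matrix n n F) (g : G) (v : n → F) : matι f g v = f g *ᵥ v := rfl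

theorem matι_inj {f : G →* Matrix n n F} (hf : Function.Injective f) : Function.Injective (matι f) :=
  (Matrix.toLinAlgEquiv' : Matrix n n F ≃ₐ[F] _).injective.comp hf

theorem ι_inv_cancel {V : Type*} [AddCommGroup V] [Module F V] (ι : G →* Module.End F V) (g : G) (v : V) :
    ι g⁻¹ (ι g v) = v := by
  rw [← Module.End.mul_apply, ← map_mul, inv_mul_cancel, map_one, Module.End.one_apply]

theorem ι_cancel_inv {V : Type*} [AddCommGroup V] [Module F V] (ι : G →* Module.End F V) (g : G) (v : V) :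
    ι g (ι g⁻¹ v) = v := by
  simpa using ι_inv_cancel ι g⁻¹ v

theorem ι_ne {V : Type*} [AddCommGroup V] [Module F V] (ι : G →* Module.End F V) (g : G) {v : V} (hv : v ≠ 0) :
    ι g v ≠ 0 := fun e => hv (by rw [← ι_inv_cancel ι g v, e, map_zero])

/-- The natural action of the special linear group. -/
def slι (n F : Type*) [Field F] [Fintype n] [DecidableEq n] : SpecialLinearGroup n F →* Module.End F (n → F) :=
  matι (SpecialLinearGroup.coeMonoidHom)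

theorem slι_apply (g : SpecialLinearGroup n F) (v : n → F) : slι n F g v = (g : Matrix n n F) *ᵥ v := rfl

theorem exists_sl {φ : (n → F) →ₗ[F] F} {p : n → F} (h : φ p = 0) (c : F) : ∃ g, slι n F g = 1 + c • ro φ p := by
  refine ⟨⟨LinearMap.toMatrix' (LinearMap.transvection (c • φ) p), ?_⟩, ?_⟩
  · rw [LinearMap.det_toMatrix', LinearMap.transvection.det]
    simp [h]
  · refine LinearMap.ext fun v => ?_
    change LinearMap.toMatrix' (LinearMap.transvection (c • φ) p) *ᵥ v = _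
    simp [LinearMap.transvection.apply, smul_smul]

theorem sl_lin : Lin F (slι n F) (NSL F (n → F)) := by
  refine ⟨matι_inj Subtype.val_injective, ?_, ?_, ?_, ?_, nsl_pair⟩
  · rintro _ ⟨φ, p, -, -, h, rfl⟩
    rw [ro_mul, h, zero_smul]
  · rintro _ ⟨φ, p, h1, h2, -, rfl⟩
    exact ro_ne h1 h2
  · rintro _ ⟨φ, p, -, -, h, rfl⟩
    exact exists_sl h
  · rintro _ ⟨φ, p, h1, h2, h, rfl⟩ g
    refine ⟨_, _, fun e => h1 ?_, ι_ne _ g h2, by simp [ι_inv_cancel, h], ro_conj _ _⟩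
    refine LinearMap.ext fun v => ?_
    simpa [ι_inv_cancel] using LinearMap.congr_fun e (slι n F g v)

theorem slι_transvection (i j : n) (c : F) (t : SpecialLinearGroup n F) :
    (t : Matrix n n F) = Matrix.transvection i j c ↔
      slι n F t = 1 + c • ro (LinearMap.proj j) (Pi.single i 1) := by
  rw [← (Matrix.toLinAlgEquiv' : Matrix n n F ≃ₐ[F] _).injective.eq_iff]
  refine Eq.congr_right (LinearMap.ext fun v => ?_)
  simp [Matrix.transvection, Matrix.toLinAlgEquiv'_apply, add_mulVec, single_mulVec, smul_smul, ← Pi.single_smul']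
  rfl

theorem proj_mem {i j : n} (h : i ≠ j) : ro (LinearMap.proj j) (Pi.single i (1 : F)) ∈ NSL F (n → F) :=
  ⟨_, _, fun e => by simpa using LinearMap.congr_fun e (Pi.single j 1), by simp, by simp [h.symm], rfl⟩

theorem sl_gen : (⨆ A ∈ Fam F (slι n F) (NSL F (n → F)), A) = ⊤ :=
  Classical.sl_eq_top_of_transvection_mem _ fun i j h c => le_gen (S := Fam F (slι n F) (NSL F (n → F)))
    ⟨_, proj_mem h, rfl⟩ (Subgroup.subset_closure ⟨c, (slι_transvection i j c _).1 rfl⟩)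

theorem sl_conn : IsConnectedFamily (FAdj (Fam F (slι n F) (NSL F (n → F)))) (Fam F (slι n F) (NSL F (n → F))) :=
  sl_lin.conn nsl_ni nsl_conn

theorem sl_fam {i j : n} (h : i ≠ j) : {A : Subgroup (SpecialLinearGroup n F) | ∃ g, A = conjBy
    (Subgroup.closure {t : SpecialLinearGroup n F | ∃ c : F, (t : Matrix n n F) = Matrix.transvection i j c}) g} =
    Fam F (slι n F) (NSL F (n → F)) := by
  simp only [slι_transvection]
  ext A
  exact ⟨fun ⟨g, e⟩ => e ▸ sl_lin.fam_conj ⟨_, proj_mem h, rfl⟩ g,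
    fun hA => (Lin.conjClass ⟨_, hA⟩ sl_conn).2 _ ⟨_, proj_mem h, rfl⟩ A hA⟩

end Mat

section Sp

open CfsgLib.Forms CfsgLib.Symp

variable {F : Type*} [Field F] {m : ℕ}

/-- The natural action of the symplectic group. -/
def spι (m : ℕ) (F : Type*) [Field F] : symplecticGroup (Fin m) F →* Module.End F (Fin m ⊕ Fin m → F) :=
  matι (symplecticGroup (Fin m) F).subtype

/-- The symplectic rank one maps. -/
def NSp (m : ℕ) (F : Type*) [Field F] : Set (Module.End F (Fin m ⊕ Fin m → F)) :=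
  {a | ∃ p, p ≠ 0 ∧ a = ro ((spB (Fin m) F).flip p) p}

theorem spB_flip_ne {p : Fin m ⊕ Fin m → F} (hp : p ≠ 0) : (spB (Fin m) F).flip p ≠ 0 := fun e => by
  obtain ⟨u, hu⟩ := exists_spB_eq_one hp
  simpa [hu] using LinearMap.congr_fun e u

theorem spι_spT (p : Fin m ⊕ Fin m → F) (c : F) : spι m F (spT p c) = 1 + c • ro ((spB (Fin m) F).flip p) p :=
  LinearMap.ext fun v => (spT_smul p c v).trans (by simp [smul_smul])

theorem nsp_op {p v : Fin m ⊕ Fin m → F} (h : spB (Fin m) F v p ≠ 0) :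
    Op F (ro ((spB (Fin m) F).flip p) p) (ro ((spB (Fin m) F).flip v) v) :=
  ro_op h (by rwa [LinearMap.BilinForm.flip_apply, spB_comm, neg_ne_zero])

theorem nsp_pair : ∀ a ∈ NSp m F, ∀ b ∈ NSp m F, a * b = b * a ∨ Op F a b := by
  rintro _ ⟨p, -, rfl⟩ _ ⟨v, -, rfl⟩
  by_cases h : spB (Fin m) F v p = 0
  · exact Or.inl (by rw [ro_mul, ro_mul, LinearMap.BilinForm.flip_apply, LinearMap.BilinForm.flip_apply, spB_comm p, h]; simp)
  · exact Or.inr (nsp_op h)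

theorem sp_lin : Lin F (spι m F) (NSp m F) := by
  refine ⟨matι_inj Subtype.val_injective, ?_, ?_, ?_, ?_, fun a ha b hb => (nsp_pair a ha b hb).imp_right Or.inl⟩
  · rintro _ ⟨p, -, rfl⟩
    rw [ro_mul, LinearMap.BilinForm.flip_apply, spB_self, zero_smul]
  · rintro _ ⟨p, h, rfl⟩
    exact ro_ne (spB_flip_ne h) h
  · rintro _ ⟨p, -, rfl⟩ c
    exact ⟨_, spι_spT p c⟩
  · rintro _ ⟨p, h, rfl⟩ g
    refine ⟨_, ι_ne (spι m F) g h, (ro_conj _ _).trans ?_⟩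
    congr 1
    refine LinearMap.ext fun v => ?_
    have := spB_smul_smul g (g⁻¹ • v) p
    rw [smul_inv_smul] at this
    exact this.symm

theorem sp_conn : IsConnectedFamily (FAdj (Fam F (spι m F) (NSp m F))) (Fam F (spι m F) (NSp m F)) := by
  have key : ∀ {p p' : Fin m ⊕ Fin m → F}, p ≠ 0 → p' ≠ 0 → ∃ v, v ≠ 0 ∧ spB (Fin m) F v p ≠ 0 ∧
      spB (Fin m) F v p' ≠ 0 := fun h h' => by
    obtain ⟨v, h1, h2⟩ := exists_ne_two (spB_flip_ne h) (spB_flip_ne h')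
    exact ⟨v, by rintro rfl; simp at h1, h1, h2⟩
  refine sp_lin.conn ?_ ?_
  · rintro _ ⟨p, h, rfl⟩
    obtain ⟨v, h0, h1, -⟩ := key h h
    exact ⟨_, ⟨v, h0, rfl⟩, nsp_op h1⟩
  · rintro _ ⟨p, h, rfl⟩ _ ⟨p', h', rfl⟩
    obtain ⟨v, h0, h1, h2⟩ := key h h'
    exact (Relation.ReflTransGen.single ⟨⟨v, h0, rfl⟩, sp_lin.op_not_comm ⟨p, h, rfl⟩ (nsp_op h1)⟩).tail
      ⟨⟨p', h', rfl⟩, (sp_lin.op_not_comm ⟨p', h', rfl⟩ (nsp_op h2)).symm⟩

theorem sp_gen : (⨆ A ∈ Fam F (spι m F) (NSp m F), A) = ⊤ :=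
  eq_top_of_spT_mem _ fun p c h => le_gen (S := Fam F (spι m F) (NSp m F)) ⟨_, ⟨p, h, rfl⟩, rfl⟩
    (Subgroup.subset_closure ⟨c, spι_spT p c⟩)

theorem sp_fam : {A : Subgroup (symplecticGroup (Fin m) F) | ∃ p : Fin m ⊕ Fin m → F, p ≠ 0 ∧
    A = Subgroup.closure {g : symplecticGroup (Fin m) F | ∃ c : F, ∀ v : Fin m ⊕ Fin m → F,
      (g : Matrix (Fin m ⊕ Fin m) (Fin m ⊕ Fin m) F) *ᵥ v = v + (c * (v ⬝ᵥ (Matrix.J (Fin m) F *ᵥ p))) • p}} =
    Fam F (spι m F) (NSp m F) := by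
  have : ∀ (p : Fin m ⊕ Fin m → F) (g : symplecticGroup (Fin m) F) (c : F),
      (∀ v, (g : Matrix (Fin m ⊕ Fin m) (Fin m ⊕ Fin m) F) *ᵥ v = v + (c * (v ⬝ᵥ (Matrix.J (Fin m) F *ᵥ p))) • p) ↔
      spι m F g = 1 + c • ro ((spB (Fin m) F).flip p) p := fun p g c => by
    rw [LinearMap.ext_iff]
    refine forall_congr' fun v => Eq.congr_right ?_
    simp [spB_apply, smul_smul]
  simp only [this]
  ext A
  exact ⟨fun ⟨p, h, e⟩ => ⟨_, ⟨p, h, rfl⟩, e⟩, fun ⟨_, ⟨p, h, rfl⟩, e⟩ => ⟨p, h, e⟩⟩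

end Sp

end CfsgLib.RootSub
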